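import Mathlib
import Cfsg.Agent.Lib.Twist.MultE6
import Cfsg.Agent.Lib.Twist.E6Mat
import Cfsg.Agent.Lib.Stein3.Mult

/-!
# The threefold cover of `²E₆(q)` and the Schur multiplier
-/

set_option autoImplicit false
set_option linter.unusedSectionVars false

open scoped commutatorElement

namespace H39

open H38 H63.St

section

variable {ι : Type} [Finite ι] {R : RS ι (Fin 6)} {K : Type*} [Field K] [Fintype K]
  {G : Type*} [Group G] {E : Elts R K G}

namespace IsE6

open Tw RTw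

variable {T : Tw E} {q : ℕ} (h : IsE6 T q) (p : ℕ) [Fact p.Prime] [CharP K p]
include h

include p in
/-- The threefold cover of `²E₆(q)`, `3 ∣ q + 1`. -/
theorem exists_cover {G' : Type*} [Group G'] {E' : Elts R K G'} {θ : G' →* G}
    (hθ : PreElts.IsHom E'.toPreElts E.toPreElts θ) (hc : CE θ) (h3 : E'.R3)
    (hi : Function.Injective (Elts.tor h3)) (hZ : Nat.card θ.ker = 3) (hq : 3 ∣ q + 1) :
    ∃ σ : commutator (T.Γ.comap θ) →* T.Γ, Cfsg.IsStemExtension σ ∧ Nat.card σ.ker = 3 := by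
  let P := T.Γ.comap θ
  let π : P →* T.Γ := (θ.comp P.subtype).codRestrict _ fun y => y.2
  have h1 : CE π := ⟨fun ⟨g, hg⟩ => by
    obtain ⟨y, rfl⟩ := hc.surj g
    exact ⟨⟨y, hg⟩, rfl⟩, fun z hz => Subgroup.mem_center_iff.2 fun g =>
      Subtype.ext (hc.comm_ker (congrArg Subtype.val hz) g).symm⟩
  have hP : commutator T.Γ = ⊤ := Subgroup.map_injective T.Γ.subtype_injective (by
    rw [Subgroup.map_subtype_commutator, ← MonoidHom.range_eq_map, Subgroup.range_subtype]
    exact le_antisymm comm_le h.perfect)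
  have h2 := H6.ce_commutator h1 hP
  have hp3 : Nat.Coprime 3 p := (Nat.coprime_primes Nat.prime_three Fact.out).2 (by
    rintro rfl
    obtain ⟨n, -, hn⟩ := FiniteField.card K 3
    have : 3 ∣ q := Nat.prime_three.dvd_of_dvd_pow (h.hK ▸ hn ▸ dvd_pow_self 3 n.ne_zero : 3 ∣ q ^ 2)
    omega)
  have pe : ∀ y : P, y ^ p = 1 → y ∈ commutator P := fun y hy => by
    obtain ⟨z, hz⟩ := h2.surj (π y)
    have e0 := pow_card_eq_one' (x := (⟨((z : P)⁻¹ * y : P), congrArg Subtype.val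
        (show π ((z : P)⁻¹ * y) = 1 by rw [map_mul, map_inv, ← hz]; exact inv_mul_cancel _)⟩ : θ.ker))
    rw [hZ] at e0
    have e1 : ((z : P)⁻¹ * y) ^ 3 = 1 := Subtype.ext (congrArg Subtype.val e0 :)
    have e2 : Abelianization.of (z : P) = 1 := (Abelianization.ker_of (G := P)).ge z.2
    refine (Abelianization.ker_of (G := P)).le (eq_one_of_coprime hp3 ?_ (by rw [← map_pow, hy, map_one]))
    have := congrArg Abelianization.of e1
    rwa [map_pow, map_mul, map_inv, e2, inv_one, one_mul, map_one] at this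
  have key : ∀ {i a b : Fin 6}, T.S.Orth i [a, b] → T.ρ a = b → T.ρ b = a → ∀ c : K,
      E'.h (R.sim a) c * E'.h (R.sim b) (c ^ q) ∈ (commutator P).map P.subtype := by
    intro i a b hO ha hb c
    have n : a ≠ b := by simpa using hO.nodup
    let m := MonoidHom.noncommCoprod (E'.XS {r | R.InSub {a} r}).subtype
      (E'.XS {r | R.InSub {b} r}).subtype fun x y =>
        commute_orth E' n (hO.orth a (by simp) b (by simp) n) x.2 y.2
    have k : ∀ {u : Fin 6 → ι} (hu : IsPM R u) (t : K),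
        (⟨⟨E'.x (u a) t, E'.x_mem_XS (hu.inSub a) _⟩, ⟨E'.x (u b) (T.φ a t), E'.x_mem_XS (hu.inSub b) _⟩⟩ :
          E'.XS _ × E'.XS _) ∈ ((commutator P).map P.subtype).comap m := fun {u} hu t => by
      refine ⟨⟨_, ?_⟩, pe _ (Subtype.ext ?_), rfl⟩
      · change θ (E'.x _ _ * E'.x _ _) ∈ T.Γ
        rw [map_mul, hθ, hθ]
        exact ((hu.mem2 hO ha hb fun t => by rw [h.hφ, h.hφ, h.pow_pow]).2 ⟨t, rfl⟩).2
      · have e : ∀ r (t : K) (n : ℕ), E'.x r t ^ n = E'.x r (n * t) := fun r t n => by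
          induction n with
          | zero => simp [E'.x_zero]
          | succ n ih => rw [pow_succ, ih, E'.x_add]; push_cast; ring_nf
        change m _ ^ p = 1
        rw [← map_pow]
        convert map_one m
        exact Prod.ext (Subtype.ext (by simp [e, E'.x_zero])) (Subtype.ext (by simp [e, E'.x_zero]))
    have := mul_mem (mul_mem (mul_mem (k pmP c) (k pmN (-c⁻¹))) (k pmP c))
      (mul_mem (mul_mem (k pmP (-1)) (k pmN (-(-1)⁻¹))) (k pmP (-1)))
    rw [Subgroup.mem_comap] at this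
    rw [← h.hφ a]
    convert this using 1
    simp [m, PreElts.h, PreElts.n]
  obtain ⟨ω, hω, hω1⟩ : ∃ ω : Kˣ, ω ^ 3 = 1 ∧ ω ≠ 1 := by
    have e := card_units_pow_eq_one K 3
    rw [h.hK, Nat.gcd_eq_right (hq.trans ⟨q - 1, Nat.sq_sub_sq q 1⟩)] at e
    have : Nontrivial {u : Kˣ // u ^ 3 = 1} := Finite.one_lt_card_iff_nontrivial.1 (by omega)
    obtain ⟨ω, h⟩ := exists_ne (⟨1, one_pow 3⟩ : {u : Kˣ // u ^ 3 = 1})
    exact ⟨ω, ω.2, fun e => h (Subtype.ext e)⟩
  have e1 : ω ^ q = ω ^ 2 := by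
    obtain ⟨k, hk⟩ := hq
    exact mul_right_cancel (b := ω) (by rw [← pow_succ, hk, pow_mul, hω, one_pow, ← pow_succ, hω])
  have e2 : (ω ^ 2) ^ q = ω := by
    rw [← pow_mul, mul_comm, pow_mul, e1, ← pow_mul, show 2 * 2 = 3 + 1 from rfl, pow_succ, hω, one_mul]
  have hz : Elts.tor h3 ![ω, 1, ω ^ 2, 1, ω, ω ^ 2] ∈ (commutator P).map P.subtype := by
    have := mul_mem (key (h.orth 0) (by rw [h.hρ]; rfl) (by rw [h.hρ]; rfl) ω)
      (key (h.orth 2) (by rw [h.hρ]; rfl) (by rw [h.hρ]; rfl) (ω ^ 2 : Kˣ))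
    rw [← Units.val_pow_eq_pow_val, ← Units.val_pow_eq_pow_val, e1, e2] at this
    rw [Elts.tor_eq_list h3 (L := [0, 5, 2, 4, 1, 3]) (by decide) (by decide)]
    simpa [E'.h_one, mul_assoc] using this
  obtain ⟨z, hz, e⟩ := hz
  have hz1 : θ z = 1 := by
    have := (tor_eq_one_iff T.hF T.hG h.h3 h.hz _).2 ((h.ψ_eq_one_iff (z := ![ω, 1, ω ^ 2, 1, ω, ω ^ 2])).2
      ⟨hω, rfl⟩)
    rw [Elts.tor_eq_list h.h3 (L := [0, 5, 2, 4, 1, 3]) (by decide) (by decide)] at this
    rw [show (z : G') = _ from e, Elts.tor_eq_list h3 (L := [0, 5, 2, 4, 1, 3]) (by decide) (by decide),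
      map_list_prod, List.map_map, ← this]
    exact congrArg List.prod (List.map_congr_left fun i _ => hθ.h _ _)
  refine ⟨_, ⟨h2.surj, h2.cen, fun x _ => ?_⟩, ?_⟩
  · have a1 := H60.commutator_comap_map_le π h1.cen (commutator P)
    rw [H78.Schur.map_commutator_of_surjective _ h1.surj, hP, Subgroup.comap_top,
      ← Subgroup.map_subtype_commutator (commutator P)] at a1
    exact (Subgroup.mem_map_iff_mem (commutator P).subtype_injective).1 (a1 x.2)
  · let f : (π.comp (commutator P).subtype).ker →* θ.ker :=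
      (P.subtype.comp ((commutator P).subtype.comp (Subgroup.subtype _))).codRestrict _
        fun y => congrArg Subtype.val y.2
    have a1 := Subgroup.card_dvd_of_injective f fun a b e =>
      Subtype.ext (Subtype.ext (Subtype.ext (congrArg Subtype.val e :)))
    rw [hZ] at a1
    refine ((Nat.dvd_prime Nat.prime_three).1 a1).resolve_left fun a2 => hω1 ?_
    have a3 : (⟨z, hz⟩ : commutator P) ∈ (π.comp (commutator P).subtype).ker := Subtype.ext hz1
    rw [Subgroup.eq_bot_of_card_eq _ a2, Subgroup.mem_bot] at a3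
    exact congrFun (hi (e.symm.trans ((congrArg (fun x : commutator P => ((x : P) : G')) a3).trans
      (map_one _).symm))) 0

end IsE6

end

open Cfsg Cfsg.Lie

universe u

variable {K : Type u} [Field K] [Fintype K] {q : ℕ}

/-- A stem extension of `²E₆(q)` with cyclic kernel of order `gcd(3, q + 1)`. -/
theorem exists_stem_E6 {R : RootSys chevE6} {E : Elts R.toRS K (GL chevE6.Idx K)} (hE : IsMat R E)
    {T : Tw hE.grp} (h : IsE6 (ι := Fin chevE6.nroots) (R := R.toRS) T q) :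
    ∃ (Q : Type u) (_ : Group Q) (σ : Q →* T.Γ), IsStemExtension σ ∧
      Nat.card σ.ker = Nat.gcd 3 (q + 1) := by
  obtain ⟨p, hp, n, hpp, -⟩ := FiniteField.card' K
  have := Fact.mk hpp
  by_cases hq : 3 ∣ q + 1
  · have hZ := hE.card_center_st (by simp) (tor_st_injective_E6 hE) smithE6
    rw [← hE.θ_ker (by simp), Nat.card_eq_fintype_card (α := K), h.hK,
      Nat.gcd_eq_left (hq.trans ⟨q - 1, Nat.sq_sub_sq q 1⟩), pow_one] at hZ
    obtain ⟨σ, h1, h2⟩ := h.exists_cover p (E' := hE.st (by simp)) hE.θ_isHom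
      ⟨hE.θ_surjective, (hE.θ_ker (by simp)).le⟩ _ (tor_st_injective_E6 hE) hZ hq
    exact ⟨_, _, σ, h1, h2.trans (Nat.gcd_eq_left hq).symm⟩
  · refine ⟨T.Γ, _, MonoidHom.id _, ⟨Function.surjective_id, by simp, by simp⟩, ?_⟩
    rw [(Nat.Prime.coprime_iff_not_dvd Nat.prime_three).2 hq]
    simp

theorem multiplier_E6 (hq : IsPrimePow q) (hK : Fintype.card K = q ^ 2) (h2 : q ≠ 2) :
    HasCyclicSchurMultiplier (twistedE6 K q) (Nat.gcd 3 (q + 1)) := by
  obtain ⟨R, E, hE, T, h, e⟩ := exists_E6 hq hK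
  obtain ⟨p, hp, n, hpp, -⟩ := FiniteField.card' K
  have := Fact.mk hpp
  obtain ⟨Q, _, σ, h1, h3⟩ := exists_stem_E6 hE h
  have h4 : IsCyclic σ.ker := by
    rcases (Nat.dvd_prime Nat.prime_three).1 (Nat.gcd_dvd_left 3 (q + 1)) with e | e
    · exact isCyclic_of_card_dvd_prime (p := 3) (by rw [h3, e]; exact one_dvd _)
    · exact isCyclic_of_card_dvd_prime (p := 3) (by rw [h3, e])
  rw [e]
  refine H60.hasSchur_of_mulEquiv (T.Γ.equivMapOfInjective _ (chevE6.group K).subtype_injective) ?_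
  refine H78.Schur.hasSchurMultiplier_of_card h1 (h3 ▸ (zmodCyclicMulEquiv h4).symm) fun Δ _ _ τ hτ => ?_
  have hτ' : CE τ := ⟨hτ.1, hτ.2.1⟩
  rw [Nat.card_congr Multiplicative.toAdd, Nat.card_zmod]
  exact Nat.le_of_dvd (Nat.gcd_pos_of_pos_left _ three_pos)
    (h.card_ker_dvd hτ' p (h.kerPP hτ' p h2 hτ.2.2) hτ.2.2)

end H39
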